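import Cfsg.Agent.Lib.Steiner.Moments

/-!
Octads against a dodecad: from the weights and self-orthogonality of the code and the Steiner
property of the octads, every octad meets a dodecad in 2, 4 or 6 points; the 6-point intersections
form a Steiner system S(5,6,12); there are 132, 495 and 132 octads of each type.
-/

set_option autoImplicit false

namespace Cfsg.Agent.Lib.Mathieu.Hexads

open Cfsg Finset Cfsg.Agent.Lib.Steiner.Basic Cfsg.Agent.Lib.Steiner.Moments

/-- The expected weights of the code. -/
def CodeWeights : Prop := ∀ w ∈ golayCode, hammingNorm w = 0 ∨ hammingNorm w = 8 ∨ hammingNorm w = 12 ∨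
  hammingNorm w = 16 ∨ hammingNorm w = 24

/-- Self-orthogonality of the code. -/
def CodeOrth : Prop := ∀ v ∈ golayCode, ∀ w ∈ golayCode, ∑ i, v i * w i = 0

theorem one_mem : (1 : GolayPt → ZMod 2) ∈ golayCode :=
  Submodule.subset_span (Or.inr rfl)

theorem card_support_eq (w : GolayPt → ZMod 2) : (support₂ w).card = hammingNorm w := rfl

theorem mem_support (w : GolayPt → ZMod 2) (i : GolayPt) : i ∈ support₂ w ↔ w i = 1 := by
  simp only [support₂, mem_filter, mem_univ, true_and]
  generalize w i = a
  revert a
  decide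

theorem card_golayPt : Fintype.card GolayPt = 24 := by
  rw [Fintype.card_option, ZMod.card]

theorem card_support_add (v w : GolayPt → ZMod 2) :
    (support₂ (v + w)).card + 2 * (support₂ v ∩ support₂ w).card
      = (support₂ v).card + (support₂ w).card := by
  have h : support₂ (v + w) = symmDiff (support₂ v) (support₂ w) := by
    ext i
    rw [mem_support, Finset.mem_symmDiff, mem_support, mem_support, Pi.add_apply]
    generalize v i = a
    generalize w i = b
    revert a b
    decide
  rw [h, show symmDiff (support₂ v) (support₂ w)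
      = (support₂ v \ support₂ w) ∪ (support₂ w \ support₂ v) from rfl,
    card_union_of_disjoint disjoint_sdiff_sdiff]
  have h1 := card_sdiff_add_card_inter (support₂ v) (support₂ w)
  have h2 := card_sdiff_add_card_inter (support₂ w) (support₂ v)
  rw [inter_comm] at h2
  omega

theorem sum_mul_eq_card (v w : GolayPt → ZMod 2) :
    ∑ i, v i * w i = (((support₂ v ∩ support₂ w).card : ℕ) : ZMod 2) := by
  have h1 : ∀ i, v i * w i = if i ∈ support₂ v ∩ support₂ w then 1 else 0 := by
    intro i
    simp only [mem_inter, mem_support]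
    generalize v i = a
    generalize w i = b
    revert a b
    decide
  rw [sum_congr rfl (fun i _ => h1 i), sum_boole]
  congr 2
  ext x
  simp

/-- The intersection of an octad with a dodecad has 2, 4 or 6 points. -/
theorem octad_inter_dodecad (hW : CodeWeights) (hO : CodeOrth) {o d : Finset GolayPt}
    (ho : o ∈ octads) (hd : d ∈ dodecads) :
    (o ∩ d).card = 2 ∨ (o ∩ d).card = 4 ∨ (o ∩ d).card = 6 := by
  obtain ⟨⟨w, hw, rfl⟩, hw8⟩ := ho
  obtain ⟨⟨v, hv, rfl⟩, hv12⟩ := hd
  -- even
  have heven : (((support₂ w ∩ support₂ v).card : ℕ) : ZMod 2) = 0 := by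
    rw [← sum_mul_eq_card]
    exact hO w hw v hv
  rw [ZMod.natCast_eq_zero_iff] at heven
  -- weight of the sum
  have h1 := card_support_add w v
  rw [hw8, hv12] at h1
  have h2 := hW _ (Submodule.add_mem _ hw hv)
  rw [← card_support_eq] at h2
  -- weight of the sum with the all one word
  have h3 := card_support_add (w + v) 1
  have h4 : support₂ (1 : GolayPt → ZMod 2) = univ := by
    ext i
    rw [mem_support]
    simp
  rw [h4, inter_univ, card_univ, card_golayPt] at h3
  have h5 := hW _ (Submodule.add_mem _ (Submodule.add_mem _ hw hv) one_mem)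
  rw [← card_support_eq] at h5
  have hle : (support₂ w ∩ support₂ v).card ≤ 8 := by
    rw [← hw8]
    exact card_le_card inter_subset_left
  omega

/-- The number of octads, and of octads through 1 or 2 points. -/
theorem moments (hS : IsSteinerSystem 5 8 octads) (E : Finset GolayPt) :
    ∑ o ∈ blocksF octads, Nat.choose (o ∩ E).card 0 = 759 ∧
    ∑ o ∈ blocksF octads, Nat.choose (o ∩ E).card 1 = E.card * 253 ∧
    ∑ o ∈ blocksF octads, Nat.choose (o ∩ E).card 2 = Nat.choose E.card 2 * 77 := by
  refine ⟨?_, ?_, ?_⟩
  · have := sum_choose_inter (B := octads) E 0 759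
      (card_through_of_mul hS 0 759 (by norm_num) (by norm_num) (by norm_num) (by
        rw [card_golayPt]; decide +kernel))
    simpa using this
  · have := sum_choose_inter (B := octads) E 1 253
      (card_through_of_mul hS 1 253 (by norm_num) (by norm_num) (by norm_num) (by
        rw [card_golayPt]; decide +kernel))
    simpa using this
  · exact sum_choose_inter (B := octads) E 2 77
      (card_through_of_mul hS 2 77 (by norm_num) (by norm_num) (by norm_num) (by
        rw [card_golayPt]; decide +kernel))

/-- The number of octads meeting a dodecad in 6, 2, 4 points. -/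
theorem hexad_counts (hW : CodeWeights) (hO : CodeOrth) (hS : IsSteinerSystem 5 8 octads)
    {d : Finset GolayPt} (hd : d ∈ dodecads) :
    {o : Finset GolayPt | o ∈ octads ∧ (o ∩ d).card = 6}.ncard = 132 ∧
    {o : Finset GolayPt | o ∈ octads ∧ (o ∩ d).card = 2}.ncard = 132 ∧
    {o : Finset GolayPt | o ∈ octads ∧ (o ∩ d).card = 4}.ncard = 495 := by
  have hd12 : d.card = 12 := hd.2
  obtain ⟨h0, h1, h2⟩ := moments hS d
  rw [hd12] at h1 h2
  have hthree : ∀ o ∈ blocksF octads, (o ∩ d).card = 2 ∨ (o ∩ d).card = 4 ∨ (o ∩ d).card = 6 :=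
    fun o ho => octad_inter_dodecad hW hO (mem_blocksF.mp ho) hd
  have key := fun f => sum_three (blocksF octads) (fun o => (o ∩ d).card) 2 4 6 (by norm_num)
    (by norm_num) (by norm_num) hthree f
  have k0 := key (fun n => Nat.choose n 0)
  have k1 := key (fun n => Nat.choose n 1)
  have k2 := key (fun n => Nat.choose n 2)
  rw [h0] at k0
  rw [h1] at k1
  rw [h2] at k2
  have hset : ∀ n : ℕ, {o : Finset GolayPt | o ∈ octads ∧ (o ∩ d).card = n}.ncard
      = ((blocksF octads).filter (fun o => (o ∩ d).card = n)).card := by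
    intro n
    rw [← Set.ncard_coe_finset]
    congr 1
    ext o
    simp
  rw [hset, hset, hset]
  generalize ((blocksF octads).filter (fun o => (o ∩ d).card = 2)).card = n2 at *
  generalize ((blocksF octads).filter (fun o => (o ∩ d).card = 4)).card = n4 at *
  generalize ((blocksF octads).filter (fun o => (o ∩ d).card = 6)).card = n6 at *
  have e1 : Nat.choose 2 0 = 1 := rfl
  have e2 : Nat.choose 4 0 = 1 := rfl
  have e3 : Nat.choose 6 0 = 1 := rfl
  have e4 : Nat.choose 2 1 = 2 := rfl
  have e5 : Nat.choose 4 1 = 4 := rfl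
  have e6 : Nat.choose 6 1 = 6 := rfl
  have e7 : Nat.choose 2 2 = 1 := rfl
  have e8 : Nat.choose 4 2 = 6 := rfl
  have e9 : Nat.choose 6 2 = 15 := rfl
  have e10 : Nat.choose 12 2 = 66 := rfl
  rw [e1, e2, e3] at k0
  rw [e4, e5, e6] at k1
  rw [e7, e8, e9, e10] at k2
  omega

/-- The hexads: the 6-point intersections with the octads form a Steiner system S(5,6,12) on the
dodecad. -/
theorem hexads_steiner (hW : CodeWeights) (hO : CodeOrth) (hS : IsSteinerSystem 5 8 octads)
    {d : Finset GolayPt} (hd : d ∈ dodecads) :
    IsSteinerSystem 5 6 {h : Finset {p : GolayPt // p ∈ d} | ∃ o ∈ octads, (o ∩ d).card = 6 ∧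
      h = Finset.subtype (fun p => p ∈ d) o} := by
  constructor
  · rintro h ⟨o, _, ho6, rfl⟩
    rw [Finset.card_subtype, ← ho6]
    congr 1
  · intro s hs
    have hcard : (s.map (Function.Embedding.subtype _)).card = 5 := by
      rw [card_map, hs]
    obtain ⟨o, ⟨ho, hso⟩, hu⟩ := hS.2 _ hcard
    have hsub : s.map (Function.Embedding.subtype _) ⊆ o ∩ d := by
      intro x hx
      rw [mem_inter]
      refine ⟨hso hx, ?_⟩
      rw [mem_map] at hx
      obtain ⟨a, _, rfl⟩ := hx
      exact a.2
    have h5 : 5 ≤ (o ∩ d).card := by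
      rw [← hcard]
      exact card_le_card hsub
    have h6 : (o ∩ d).card = 6 := by
      rcases octad_inter_dodecad hW hO ho hd with h | h | h <;> omega
    refine ⟨Finset.subtype (fun p => p ∈ d) o, ⟨⟨o, ho, h6, rfl⟩, ?_⟩, ?_⟩
    · intro a ha
      rw [mem_subtype]
      apply hso
      rw [mem_map]
      exact ⟨a, ha, rfl⟩
    · rintro h ⟨⟨o', ho', _, rfl⟩, hso'⟩
      have : o' = o := by
        apply hu
        refine ⟨ho', ?_⟩
        intro x hx
        rw [mem_map] at hx
        obtain ⟨a, ha, rfl⟩ := hx
        have := hso' ha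
        rw [mem_subtype] at this
        exact this
      rw [this]

end Cfsg.Agent.Lib.Mathieu.Hexads
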